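import Cfsg.Agent.H232.IF.RowSL
import Cfsg.Agent.S0806
import Cfsg.Agent.H680.IF.EngA

/-!
# S5719: `PSL_4(q)`, `q` even, `A` of even order (helper836; proof of helper358, tools of helper232)
-/

set_option autoImplicit false
set_option linter.unusedSectionVars false

namespace Cfsg.Agent.H836.IFR

open Module Subgroup Matrix Cfsg.Agent.H209.Fxy Cfsg.Agent.H232.IFR
open Cfsg.Agent.H847.Bs (slV)

/-- further inequalities for the preimage `B` of `A` -/
structure LF4 {S : Type*} [Group S] (B : Subgroup S) : Prop extends LF B where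
  e2b : ∀ a ∈ B, a ≠ 1 → a * a = 1 → B.index ^ 5 < (centralizer ({a} : Set S)).index ^ 6
  e4b : ∀ s ∈ B, ∀ t ∈ B, s ≠ 1 → t ≠ 1 → s * s = 1 → t * t = 1 → s ≠ t → s * t = t * s →
    ∀ C ≤ centralizer ({t} : Set S),
      B.relIndex C ^ 4 * (centralizer ({s} : Set S)).relIndex (centralizer ({t} : Set S)) <
        (centralizer ({s} : Set S)).index

section eng

variable {S T : Type*} [Group S] [Group T] [Finite T] [IsSimpleGroup T] {A : Subgroup T} {Γ : Subgroup (MulAut T)}

theorem lf4_of (π : S →* T) (hπ : Function.Surjective π)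
    (hker : ∀ z ∈ π.ker, z ∈ Subgroup.center S ∧ (z * z = 1 → z = 1)) (hna : ∃ a b : T, a * b ≠ b * a) (h : IF A Γ) :
    LF4 (A.comap π) := by
  have hrel : ∀ (H K : Subgroup T), (H.comap π).relIndex (K.comap π) = H.relIndex K := by
    intro H K
    rw [Subgroup.relIndex_comap, Subgroup.map_comap_eq_self_of_surjective hπ]
  refine ⟨lf_of π hπ hker hna h, ?_, ?_⟩
  · intro a ha ha1 ha2
    have h1 := (Cfsg.Agent.H999.IFB.IF.E2' h hna (t := π a) ha (orderOf_image π hker ha2 ha1)).2.2.2.1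
    rwa [← comap_centralizer π hker ha2, Subgroup.index_comap_of_surjective _ hπ,
      Subgroup.index_comap_of_surjective _ hπ]
  · intro s hs t ht hs1 ht1 hs2 ht2 hst hc C hC
    have h1 := (Cfsg.Agent.H809.IFC.IF.E4 h hna (s := π s) (t := π t) hs ht (orderOf_image π hker hs2 hs1)
      (orderOf_image π hker ht2 ht1)
      (by
        intro h2
        have hz : s * t⁻¹ ∈ π.ker := by rw [MonoidHom.mem_ker, map_mul, map_inv, h2, mul_inv_cancel]
        have h3 := (hker _ hz).2 (by
          have h4 : t⁻¹ = t := inv_eq_of_mul_eq_one_left ht2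
          rw [h4]
          calc s * t * (s * t) = s * (t * s) * t := by group
            _ = (s * s) * (t * t) := by rw [← hc]; group
            _ = 1 := by rw [hs2, ht2, one_mul])
        exact hst (mul_inv_eq_one.1 h3)) (by rw [← map_mul, hc, map_mul])).2.2.1
    rw [← comap_centralizer π hker hs2, ← comap_centralizer π hker ht2, Subgroup.index_comap_of_surjective _ hπ, hrel]
    refine lt_of_le_of_lt (Nat.mul_le_mul_right _ (Nat.pow_le_pow_left ?_ 4)) h1
    rw [Subgroup.relIndex_comap]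
    refine Cfsg.Agent.H680.Fxy.relIndex_le A (MulAut.conj (π t)) ?_
    rintro _ ⟨c, hcC, rfl⟩
    have h5 : c * t = t * c := mem_centralizer_singleton_iff.1 (hC hcC)
    rw [MulAut.conj_apply, ← map_mul, ← h5, map_mul, mul_inv_cancel_right]

end eng

/-! ### `SL₂(q)` -/

theorem sl2_top {F : Type} [Field F] [Fintype F] (h2 : (2 : F) = 0) (h4 : 4 ≤ Fintype.card F)
    {H : Subgroup (SpecialLinearGroup (Fin 2) F)} (hH : H.index ≤ Fintype.card F) : H = ⊤ := by
  have hfin : Finite (SpecialLinearGroup (Fin 2) F) := inferInstance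
  have hev : Even (Fintype.card F) := by
    have h1 : ringChar F = 2 := by
      have h3 : ringChar F ∣ 2 := (ringChar.spec F 2).1 (by exact_mod_cast h2)
      rcases (Nat.dvd_prime Nat.prime_two).1 h3 with h | h
      · exact absurd h (CharP.ringChar_ne_one)
      · exact h
    exact Nat.even_iff.2 (FiniteField.even_card_iff_char_two.1 h1)
  set p : SpecialLinearGroup (Fin 2) F →* ProjectiveSpecialLinearGroup (Fin 2) F :=
    QuotientGroup.mk' (Subgroup.center (SpecialLinearGroup (Fin 2) F)) with hp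
  have hps : Function.Surjective p := QuotientGroup.mk'_surjective _
  have hpi : Function.Injective p := by
    rw [← MonoidHom.ker_eq_bot_iff, hp, QuotientGroup.ker_mk', Subgroup.eq_bot_iff_forall]
    intro z hz
    rw [Matrix.SpecialLinearGroup.mem_center_iff] at hz
    obtain ⟨r, hr, hrz⟩ := hz
    rw [Fintype.card_fin] at hr
    have h3 : (r - 1) * (r - 1) = 0 := by linear_combination hr + (1 - r) * h2
    have h5 : r = 1 := sub_eq_zero.1 (mul_self_eq_zero.1 h3)
    apply Subtype.ext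
    rw [← hrz, h5, map_one]
    rfl
  have h3 : (H.map p).index ≤ Fintype.card F :=
    (Nat.le_of_dvd (Nat.pos_of_ne_zero Subgroup.index_ne_zero_of_finite) (Subgroup.index_map_dvd H hps)).trans hH
  have h5 : H.map p = ⊤ := by
    by_contra hne
    have h6 := (Cfsg.Agent.S0806.result (F := F) rfl (by
      intro hmem
      simp only [Finset.mem_insert, Finset.mem_singleton] at hmem
      obtain ⟨k, hk⟩ := hev
      omega)).1 _ hne
    omega
  rw [eq_top_iff]
  intro x _
  have h6 : p x ∈ H.map p := by rw [h5]; exact mem_top _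
  obtain ⟨y, hy, hyx⟩ := h6
  rwa [← hpi hyx]

/-! ### linear algebra -/

section LA

variable {F X : Type} [Field F] [Finite F] [AddCommGroup X] [Module F X] [FiniteDimensional F X]

/-- a vector of a subspace of dimension at least 2 outside two lines -/
theorem exists_avoid (hq : 3 ≤ Nat.card F) (Y : Submodule F X) (hY : 2 ≤ finrank F Y) (x y : X) :
    ∃ z ∈ Y, z ∉ Submodule.span F {x} ∧ z ∉ Submodule.span F {y} := by
  have hXfin : Finite X := Module.finite_of_finite F
  by_contra hcon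
  push Not at hcon
  have h1 : (Y : Set X) ⊆ (Submodule.span F {x} : Set X) ∪ (Submodule.span F {y} : Set X) := by
    intro z hz
    by_cases h : z ∈ Submodule.span F {x}
    · exact Or.inl h
    · exact Or.inr (hcon z hz h)
  have hc : ∀ u : X, (Submodule.span F {u} : Set X).ncard ≤ Nat.card F := by
    intro u
    have h3 : (Submodule.span F {u} : Set X).ncard = Nat.card (Submodule.span F {u}) := rfl
    rw [h3, Module.natCard_eq_pow_finrank (K := F)]
    calc Nat.card F ^ finrank F (Submodule.span F {u}) ≤ Nat.card F ^ 1 :=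
          Nat.pow_le_pow_right (by omega) (by
            have h9 := finrank_span_le_card (R := F) ({u} : Set X)
            simpa using h9)
      _ = _ := pow_one _
  have h2 := (Set.ncard_le_ncard h1 (Set.toFinite _)).trans (Set.ncard_union_le _ _)
  have h3 : (Y : Set X).ncard = Nat.card F ^ finrank F Y := by
    rw [← Module.natCard_eq_pow_finrank (K := F)]
    rfl
  have h4 : Nat.card F ^ 2 ≤ Nat.card F ^ finrank F Y := Nat.pow_le_pow_right (by omega) hY
  have h5 := hc x
  have h6 := hc y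
  have h7 : Nat.card F ^ 2 = Nat.card F * Nat.card F := pow_two _
  have h8 : 3 * Nat.card F ≤ Nat.card F * Nat.card F := Nat.mul_le_mul_right _ hq
  rw [h3] at h2
  omega

omit [Finite F] in
theorem two_le_ker (f g : Dual F X) (h4 : 4 ≤ finrank F X) :
    2 ≤ finrank F (LinearMap.ker f ⊓ LinearMap.ker g : Submodule F X) := by
  have h1 := LinearMap.finrank_range_add_finrank_ker (f.prod g)
  have h2 : finrank F (LinearMap.range (f.prod g)) ≤ 2 := by
    refine (Submodule.finrank_le _).trans ?_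
    rw [Module.finrank_prod, finrank_self]
  rw [LinearMap.ker_prod] at h1
  omega

end LA

section Main

variable {F V : Type} [Field F] [Finite F] [AddCommGroup V] [Module F V] [FiniteDimensional F V]

/-- **Transitivity.** -/
theorem exists_sl_pt (h4 : 4 ≤ finrank F V) {φ ψ ψ' : Dual F V} {p : V} (hφ : φ ≠ 0)
    (hψ : ψ ∉ Submodule.span F {φ}) (hψ' : ψ' ∉ Submodule.span F {φ}) (hp : p ≠ 0)
    (h1 : φ p = 0) (h2 : ψ p = 0) (h2' : ψ' p = 0) :
    ∃ g : V ≃ₗ[F] V, LinearMap.det (g : V →ₗ[F] V) = 1 ∧ g p = p ∧ (∀ v, φ (g v) = φ v) ∧ ∀ v, ψ' (g v) = ψ v := by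
  obtain ⟨y₁, y₂, hy1, hy2, hy3, hy4⟩ := exists_dual_pair hφ hψ
  obtain ⟨z₁, z₂, hz1, hz2, hz3, hz4⟩ := exists_dual_pair hφ hψ'
  set D : Submodule F V := LinearMap.ker φ ⊓ LinearMap.ker ψ with hD
  set D' : Submodule F V := LinearMap.ker φ ⊓ LinearMap.ker ψ' with hD'
  have hd := finrank_ker_two hφ hψ
  have hd' := finrank_ker_two hφ hψ'
  rw [← hD] at hd
  rw [← hD'] at hd'
  let e : D ≃ₗ[F] D' := LinearEquiv.ofFinrankEq D D' (by omega)
  have hpD : p ∈ D := ⟨h1, h2⟩
  have hpD' : p ∈ D' := ⟨h1, h2'⟩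
  have hu : LinearIndependent F (fun _ : Unit => e ⟨p, hpD⟩) := by
    rw [linearIndependent_unique_iff]
    intro h
    rw [LinearEquiv.map_eq_zero_iff] at h
    exact hp (congrArg Subtype.val h)
  have hu' : LinearIndependent F (fun _ : Unit => (⟨p, hpD'⟩ : D')) := by
    rw [linearIndependent_unique_iff]
    intro h
    exact hp (congrArg Subtype.val h)
  obtain ⟨k, -, hk⟩ := Cfsg.Agent.H166.Cov.exists_sl_map hu hu' (by rw [Nat.card_unique]; omega)
  have hk0 : k (e ⟨p, hpD⟩) = ⟨p, hpD'⟩ := hk ()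
  -- the linear map
  have hmem : ∀ v, (LinearMap.id - (rk φ y₁) - (rk ψ y₂) : V →ₗ[F] V) v ∈ D := by
    intro v
    refine ⟨?_, ?_⟩
    · rw [SetLike.mem_coe, LinearMap.mem_ker, LinearMap.sub_apply, LinearMap.sub_apply, LinearMap.id_apply, rk_apply,
        rk_apply, map_sub, map_sub, map_smul, map_smul, hy1, hy3, smul_eq_mul, mul_one, smul_zero, sub_self, sub_zero]
    · rw [SetLike.mem_coe, LinearMap.mem_ker, LinearMap.sub_apply, LinearMap.sub_apply, LinearMap.id_apply, rk_apply,
        rk_apply, map_sub, map_sub, map_smul, map_smul, hy2, hy4, smul_zero, sub_zero, smul_eq_mul, mul_one, sub_self]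
  let P : V →ₗ[F] D := (LinearMap.id - (rk φ y₁) - (rk ψ y₂) : V →ₗ[F] V).codRestrict D hmem
  let g₀ : V →ₗ[F] V := D'.subtype ∘ₗ (k : D' →ₗ[F] D') ∘ₗ (e : D →ₗ[F] D') ∘ₗ P + rk φ z₁ + rk ψ z₂
  have hg₀ : ∀ v, g₀ v = (k (e (P v)) : V) + φ v • z₁ + ψ v • z₂ := fun v => rfl
  have hg1 : ∀ v, φ (g₀ v) = φ v := by
    intro v
    have h6 : φ (k (e (P v)) : V) = 0 := (k (e (P v))).2.1
    rw [hg₀, map_add, map_add, map_smul, map_smul, h6, hz1, hz3, smul_eq_mul, mul_one, smul_zero, zero_add, add_zero]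
  have hg2 : ∀ v, ψ' (g₀ v) = ψ v := by
    intro v
    have h6 : ψ' (k (e (P v)) : V) = 0 := (k (e (P v))).2.2
    rw [hg₀, map_add, map_add, map_smul, map_smul, h6, hz2, hz4, smul_zero, smul_eq_mul, mul_one, zero_add, zero_add]
  have hPD : ∀ v (hv : v ∈ D), P v = ⟨v, hv⟩ := by
    intro v hv
    apply Subtype.ext
    show v - φ v • y₁ - ψ v • y₂ = v
    have h6 : φ v = 0 := hv.1
    have h7 : ψ v = 0 := hv.2
    rw [h6, h7, zero_smul, zero_smul, sub_zero, sub_zero]
  have hgD : ∀ v (hv : v ∈ D), g₀ v = k (e ⟨v, hv⟩) := by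
    intro v hv
    have h6 : φ v = 0 := hv.1
    have h7 : ψ v = 0 := hv.2
    rw [hg₀, hPD v hv, h6, h7, zero_smul, zero_smul, add_zero, add_zero]
  have hinj : Function.Injective g₀ := by
    rw [← LinearMap.ker_eq_bot, LinearMap.ker_eq_bot']
    intro v hv
    have h6 := hg1 v
    have h7 := hg2 v
    rw [hv, map_zero] at h6 h7
    have hvD : v ∈ D := ⟨h6.symm, h7.symm⟩
    have h8 := hgD v hvD
    rw [hv] at h8
    have h9 : k (e ⟨v, hvD⟩) = 0 := Subtype.ext h8.symm
    rw [LinearEquiv.map_eq_zero_iff, LinearEquiv.map_eq_zero_iff] at h9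
    exact congrArg Subtype.val h9
  let g : V ≃ₗ[F] V := LinearEquiv.ofInjectiveEndo g₀ hinj
  have hg : ∀ v, g v = g₀ v := fun v => rfl
  -- the correction of the determinant
  obtain ⟨x, hxD, hxP⟩ : ∃ x ∈ D, x ∉ Submodule.span F {p} := by
    by_contra hcon
    push Not at hcon
    have h6 : D ≤ Submodule.span F {p} := hcon
    have h7 := Submodule.finrank_mono h6
    rw [finrank_span_singleton hp] at h7
    omega
  obtain ⟨f, hf1, hf2⟩ := Submodule.exists_dual_map_eq_bot_of_notMem hxP inferInstance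
  have hfp : f p = 0 := by
    have h6 : f p ∈ (Submodule.span F {p}).map f := ⟨p, Submodule.mem_span_singleton_self p, rfl⟩
    rw [hf2, Submodule.mem_bot] at h6
    exact h6
  have hdet0 : LinearMap.det (g : V →ₗ[F] V) ≠ 0 := by
    intro h
    have := LinearEquiv.isUnit_det' g
    rw [h] at this
    exact not_isUnit_zero this
  set δ := LinearMap.det (g : V →ₗ[F] V) with hδ
  let f' : Dual F V := ((δ⁻¹ - 1) * (f x)⁻¹) • f
  have hf'x : 1 + f' x = δ⁻¹ := by
    show 1 + ((δ⁻¹ - 1) * (f x)⁻¹) * f x = δ⁻¹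
    rw [mul_assoc, inv_mul_cancel₀ hf1]
    ring
  have hunit : IsUnit (1 + f' x) := by rw [hf'x]; exact isUnit_iff_ne_zero.2 (inv_ne_zero hdet0)
  let u : V ≃ₗ[F] V := LinearEquiv.dilatransvection hunit
  have hu1 : ∀ v, u v = v + f' v • x := fun v => LinearEquiv.dilatransvection.apply
  have hudet : LinearMap.det (u : V →ₗ[F] V) = δ⁻¹ := by
    have h6 : (u : V →ₗ[F] V) = LinearMap.transvection f' x := LinearEquiv.dilatransvection.coe_toLinearMap
    rw [h6, LinearMap.transvection.det, hf'x]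
  have hx1 : φ x = 0 := hxD.1
  have hx2 : ψ x = 0 := hxD.2
  have hf'p : f' p = 0 := by show _ * f p = 0; rw [hfp, mul_zero]
  refine ⟨g * u, ?_, ?_, fun v => ?_, fun v => ?_⟩
  · show LinearMap.det ((g : V →ₗ[F] V) ∘ₗ (u : V →ₗ[F] V)) = 1
    rw [LinearMap.det_comp, hudet, ← hδ, mul_inv_cancel₀ hdet0]
  · show g (u p) = p
    rw [hu1, hf'p, zero_smul, add_zero, hg, hgD p hpD, hk0]
  · show φ (g (u v)) = φ v
    rw [hg, hg1, hu1, map_add, map_smul, hx1, smul_zero, add_zero]
  · show ψ' (g (u v)) = ψ v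
    rw [hg, hg2, hu1, map_add, map_smul, hx2, smul_zero, add_zero]

end Main

end Cfsg.Agent.H836.IFR
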