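import Cfsg.Agent.H836.IF.FourEven
import Cfsg.Agent.LieClassical.SLGen

/-!
# S5719: `PSL_4(q)`, `q` even: two transvections, the groups `SL_2(q)` (helper836)
-/

set_option autoImplicit false
set_option linter.unusedSectionVars false

namespace Cfsg.Agent.H836.IFR

open Module Subgroup Matrix Cfsg.Agent.H209.Fxy Cfsg.Agent.H232.IFR
open Cfsg.Agent.H847.Bs (slV)

/-- the numbers -/
theorem num4 {q f c I : ℕ} (hq : 4 ≤ q) (hc : q ^ 3 - q ≤ c) (hI : I * (q - 1) ≤ (q ^ 4 - 1) * (q ^ 3 - 1))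
    (h : f ^ 4 * c < I) : f < q := by
  by_contra hge
  push Not at hge
  obtain ⟨r, rfl⟩ : ∃ r, q = r + 1 := ⟨q - 1, by omega⟩
  rw [Nat.add_sub_cancel] at hI
  have h1 : (r + 1) ^ 4 * c < I := lt_of_le_of_lt (Nat.mul_le_mul_right _ (Nat.pow_le_pow_left hge 4)) h
  have h2 : (r + 1) ^ 2 * r ≤ c := by
    refine le_trans ?_ hc
    have h3 : (r + 1) ^ 3 = (r + 1) ^ 2 * r + (r + 1) ^ 2 := by ring
    have h4 : r + 1 ≤ (r + 1) ^ 2 := Nat.le_self_pow (by omega) _
    omega
  have h3 : (r + 1) ^ 4 * ((r + 1) ^ 2 * r) * r < (r + 1) ^ 4 * (r + 1) ^ 3 := by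
    calc (r + 1) ^ 4 * ((r + 1) ^ 2 * r) * r ≤ (r + 1) ^ 4 * c * r :=
          Nat.mul_le_mul_right _ (Nat.mul_le_mul_left _ h2)
      _ < I * r := Nat.mul_lt_mul_of_pos_right h1 (by omega)
      _ ≤ _ := hI
      _ ≤ _ := Nat.mul_le_mul (Nat.sub_le _ _) (Nat.sub_le _ _)
  have h4 : (r + 1) ^ 4 * (r + 1) ^ 3 = (r + 1) ^ 6 * (r + 1) := by ring
  have h5 : (r + 1) ^ 4 * ((r + 1) ^ 2 * r) * r = (r + 1) ^ 6 * (r * r) := by ring
  rw [h4, h5] at h3
  have h6 := Nat.lt_of_mul_lt_mul_left h3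
  have h7 : 3 * r ≤ r * r := Nat.mul_le_mul_right _ (by omega)
  omega

section Main

variable {F V : Type} [Field F] [Finite F] [AddCommGroup V] [Module F V] [FiniteDimensional F V]

theorem index_trans_le (h2 : (2 : F) = 0) (h4 : finrank F V = 4) {t : slV F V} (ht2 : t * t = 1) {φ : Dual F V} {p : V}
    (hφ : φ ≠ 0) (hp : p ≠ 0) (htn : nn t = rk φ p) :
    (centralizer ({t} : Set (slV F V))).index * (Nat.card F - 1) ≤ (Nat.card F ^ 4 - 1) * (Nat.card F ^ 3 - 1) := by
  have hr1 : finrank F (LinearMap.range (nn t)) = 1 := by rw [htn, finrank_range_rk hφ hp]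
  have h1 := index_le h2 ht2
  rw [hr1] at h1
  have h3 := (Nat.mul_le_mul_right (Nat.card F - 1) h1).trans (card_rank_one_le (F := F) (V := V))
  rwa [h4] at h3

theorem rk_inj_left {ψ ψ' : Dual F V} {p : V} (hp : p ≠ 0) (h : rk ψ p = rk ψ' p) : ψ = ψ' := by
  ext v
  have h1 := LinearMap.congr_fun h v
  rw [rk_apply, rk_apply] at h1
  have h2 : (ψ v - ψ' v) • p = 0 := by rw [sub_smul, h1, sub_self]
  exact sub_eq_zero.1 ((smul_eq_zero.1 h2).resolve_right hp)

/-- a second transvection with the same centre -/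
theorem exists_second4 (h2 : (2 : F) = 0) (h4 : finrank F V = 4) {B : Subgroup (slV F V)} (hB : LF B) {t : slV F V}
    (ht : t ∈ B) (ht1 : t ≠ 1) (ht2 : t * t = 1) {φ : Dual F V} {p : V} (hφ : φ ≠ 0) (hp : p ≠ 0) (hφp : φ p = 0)
    (htn : nn t = rk φ p) :
    ∃ (s : slV F V) (ψ : Dual F V), s ∈ B ∧ nn s = rk ψ p ∧ ψ ∉ Submodule.span F {φ} ∧ ψ p = 0 := by
  have hfin := finite_sl (F := F) (V := V)
  have hq : 1 < Nat.card F := Finite.one_lt_card
  set R := Submodule.span F {p} with hR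
  have hpR : p ∈ R := Submodule.mem_span_singleton_self p
  have hRd : finrank F R = 1 := by rw [hR, finrank_span_singleton hp]
  have hC : (Tw h2 (le_refl R)).range ≤ centralizer ({t} : Set (slV F V)) := by
    apply Tw_comm h2 (le_refl R)
    · rw [htn, range_rk hφ]
    · rw [hR, Submodule.span_singleton_le_iff_mem, LinearMap.mem_ker, htn, rk_apply, hφp, zero_smul]
  have hcard := card_Tw h2 (le_refl R)
  rw [hRd, mul_one, h4] at hcard
  have hcard' : Nat.card (Tw h2 (le_refl R)).range = Nat.card F ^ 3 := hcard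
  have h1 := hB.e2 t ht ht1 ht2 _ hC
  have h3 := index_trans_le h2 h4 ht2 hφ hp htn
  have h5 : B.relIndex (Tw h2 (le_refl R)).range < Nat.card F ^ 2 := by
    by_contra hge
    push Not at hge
    have h5 := Nat.pow_le_pow_left hge 5
    rw [← pow_mul] at h5
    have h6 : Nat.card F ^ (2 * 5) < (centralizer ({t} : Set (slV F V))).index := lt_of_le_of_lt h5 h1
    have h7 : (centralizer ({t} : Set (slV F V))).index ≤ (centralizer ({t} : Set (slV F V))).index * (Nat.card F - 1) :=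
      Nat.le_mul_of_pos_right _ (by omega)
    have h8 : (Nat.card F ^ 4 - 1) * (Nat.card F ^ 3 - 1) ≤ Nat.card F ^ 4 * Nat.card F ^ 3 :=
      Nat.mul_le_mul (Nat.sub_le _ _) (Nat.sub_le _ _)
    rw [← pow_add] at h8
    have h9 : Nat.card F ^ (4 + 3) ≤ Nat.card F ^ (2 * 5) := Nat.pow_le_pow_right (by omega) (by norm_num)
    omega
  have h6 := relIndex_card B (Tw h2 (le_refl R)).range
  rw [hcard'] at h6
  have h7 : Nat.card F < Nat.card (B ⊓ (Tw h2 (le_refl R)).range : Subgroup (slV F V)) := by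
    by_contra hge
    push Not at hge
    have h8 : B.relIndex (Tw h2 (le_refl R)).range * Nat.card (B ⊓ (Tw h2 (le_refl R)).range : Subgroup (slV F V)) <
        Nat.card F ^ 2 * Nat.card F := by
      calc _ ≤ B.relIndex (Tw h2 (le_refl R)).range * Nat.card F := Nat.mul_le_mul_left _ hge
        _ < _ := Nat.mul_lt_mul_of_pos_right h5 (by omega)
    rw [h6, ← pow_succ] at h8
    exact lt_irrefl _ h8
  have hfun : ∀ f : (V ⧸ R) →ₗ[F] R, ∃ ψ : Dual F V, tw f = rk ψ p ∧ ∀ x ∈ R, ψ x = 0 := by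
    intro f
    have hex : ∀ v : V, ∃ c : F, c • p = tw f v := fun v =>
      Submodule.mem_span_singleton.1 (f (Submodule.Quotient.mk v)).2
    choose ψ hψ using hex
    have hinj : ∀ c d : F, c • p = d • p → c = d := fun c d h => by
      by_contra hne
      have h10 : (c - d) • p = 0 := by rw [sub_smul, h, sub_self]
      rcases smul_eq_zero.1 h10 with h11 | h11
      · exact hne (sub_eq_zero.1 h11)
      · exact hp h11
    refine ⟨
      { toFun := ψ
        map_add' := fun x y => hinj _ _ (by rw [hψ, add_smul, hψ, hψ, map_add])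
        map_smul' := fun c x => hinj _ _ (by rw [hψ, RingHom.id_apply, smul_assoc, hψ, map_smul]) }, ?_, fun x hx => ?_⟩
    · ext v
      exact (hψ v).symm
    · apply hinj
      show ψ x • p = (0 : F) • p
      rw [hψ, tw_apply, zero_smul]
      have h10 : (Submodule.Quotient.mk x : V ⧸ R) = 0 := by
        rw [Submodule.Quotient.mk_eq_zero]
        exact hx
      rw [h10, map_zero]
      rfl
  by_contra hcon
  push Not at hcon
  have hall : ∀ x : (B ⊓ (Tw h2 (le_refl R)).range : Subgroup (slV F V)), ∃ c : F, nn (x : slV F V) = rk (c • φ) p := by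
    rintro ⟨x, hxB, f, rfl⟩
    obtain ⟨ψ, hψ1, hψ2⟩ := hfun f.toAdd
    have h10 : nn (Tw h2 (le_refl R) f) = rk ψ p := (nn_Tw h2 (le_refl R) f).trans hψ1
    have h11 : ψ ∈ Submodule.span F {φ} := by
      by_contra hψ
      exact hcon _ ψ hxB h10 hψ (hψ2 p hpR)
    obtain ⟨c, hc⟩ := Submodule.mem_span_singleton.1 h11
    exact ⟨c, by rw [hc]; exact h10⟩
  choose c hc using hall
  have h8 := Nat.card_le_card_of_injective c (by
    intro x y hxy
    apply Subtype.ext
    apply nn_inj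
    rw [hc x, hc y, hxy])
  omega

/-- the number of conjugates of `s` under the centraliser of `t` -/
theorem card_conj_ge4 (h2 : (2 : F) = 0) (h4 : finrank F V = 4) {s t : slV F V} {φ ψ : Dual F V} {p : V}
    (hφ : φ ≠ 0) (hp : p ≠ 0) (hφp : φ p = 0) (htn : nn t = rk φ p) (hsn : nn s = rk ψ p)
    (hψφ : ψ ∉ Submodule.span F {φ}) (hψp : ψ p = 0) :
    Nat.card F ^ 3 - Nat.card F ≤ (centralizer ({s} : Set (slV F V))).relIndex (centralizer ({t} : Set (slV F V))) := by
  classical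
  have hfin := finite_sl (F := F) (V := V)
  have hVfin : Finite V := Module.finite_of_finite F
  have hfinD : Finite (Dual F V) := Finite.of_injective (fun g : Dual F V => (g : V → F)) DFunLike.coe_injective
  rw [relIndex_centralizer]
  let Y := {ψ' : Dual F V // ψ' p = 0 ∧ ψ' ∉ Submodule.span F {φ}}
  have hspanφ : Nat.card (Submodule.span F {φ} : Submodule F (Dual F V)) = Nat.card F := by
    rw [Module.natCard_eq_pow_finrank (K := F), finrank_span_singleton hφ, pow_one]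
  have hY : Nat.card F ^ 3 - Nat.card F = Nat.card Y := by
    have h3 : Nat.card F ^ 3 = Nat.card {ψ : Dual F V // ψ p = 0} := by
      rw [card_dual_ann p hp, h4]
    rw [h3, ← hspanφ]
    have h6 : (Submodule.span F {φ} : Set (Dual F V)) ⊆ {ψ' : Dual F V | ψ' p = 0} := by
      intro x hx
      obtain ⟨c, rfl⟩ := Submodule.mem_span_singleton.1 hx
      show (c • φ) p = 0
      rw [LinearMap.smul_apply, hφp, smul_zero]
    exact (Set.ncard_sdiff h6 (Set.toFinite _)).symm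
  rw [hY]
  have hsq : ∀ c : Y, rk c.1 p * rk c.1 p = 0 := by
    intro c
    rw [rk_mul_rk, c.2.1, zero_smul]
  have hconj : ∀ c : Y, ∃ g ∈ centralizer ({t} : Set (slV F V)), un h2 (rk c.1 p) (hsq c) = g * s * g⁻¹ := by
    rintro ⟨ψ', h3, h6⟩
    obtain ⟨g, hdet, hg1, hg3, hg4⟩ := exists_sl_pt (by omega) hφ hψφ h6 hp hφp hψp h3
    refine ⟨⟨g, hdet⟩, ?_, ?_⟩
    · rw [mem_centralizer_singleton_iff]
      apply Subtype.ext
      ext v
      have hav : ∀ v, (t : V ≃ₗ[F] V) v = v + φ v • p := fun v => by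
        have h7 := LinearMap.congr_fun htn v
        rw [nn_apply, rk_apply] at h7
        rw [← h7]
        abel
      show g ((t : V ≃ₗ[F] V) v) = (t : V ≃ₗ[F] V) (g v)
      rw [hav, hav, map_add, map_smul, hg1, hg3]
    · apply nn_inj
      rw [nn_un, nn_conj, hsn]
      ext v
      have h7 : g ((((⟨g, hdet⟩ : slV F V)⁻¹ : slV F V) : V ≃ₗ[F] V) v) = v := g.apply_symm_apply v
      show ψ' v • p = g (ψ ((((⟨g, hdet⟩ : slV F V)⁻¹ : slV F V) : V ≃ₗ[F] V) v) • p)
      rw [map_smul, hg1, ← hg4, h7]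
  refine Nat.card_le_card_of_injective (fun c : Y => (⟨un h2 (rk c.1 p) (hsq c), hconj c⟩ :
    {x : slV F V // ∃ g ∈ centralizer ({t} : Set (slV F V)), x = g * s * g⁻¹})) ?_
  intro c c' h
  have h7 := congrArg (fun x : {x : slV F V // ∃ g ∈ centralizer ({t} : Set (slV F V)), x = g * s * g⁻¹} => nn x.1) h
  simp only [nn_un] at h7
  exact Subtype.ext (rk_inj_left hp h7)

/-- `B` has small index in the centraliser of a transvection -/
theorem rel_lt (h2 : (2 : F) = 0) (h4 : finrank F V = 4) (hq : 4 ≤ Nat.card F) {B : Subgroup (slV F V)} (hB : LF4 B)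
    {t : slV F V} (ht : t ∈ B) {φ : Dual F V} {p : V} (hφ : φ ≠ 0) (hp : p ≠ 0) (hφp : φ p = 0)
    (htn : nn t = rk φ p) (C : Subgroup (slV F V)) (hC : C ≤ centralizer ({t} : Set (slV F V))) :
    B.relIndex C < Nat.card F := by
  have htv : ∀ v, (t : V ≃ₗ[F] V) v = v + φ v • p := fun v => by
    have h7 := LinearMap.congr_fun htn v
    rw [nn_apply, rk_apply] at h7
    rw [← h7]
    abel
  have hsq : ∀ ψ : Dual F V, ψ p = 0 → rk ψ p * rk ψ p = 0 := fun ψ h => by rw [rk_mul_rk, h, zero_smul]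
  have hrk0 : ∀ ψ : Dual F V, ψ ≠ 0 → rk ψ p ≠ 0 := by
    intro ψ hψ h
    obtain ⟨w, hw⟩ := LinearMap.surjective hψ 1
    have h7 := LinearMap.congr_fun h w
    rw [LinearMap.zero_apply, rk_apply, hw, one_smul] at h7
    exact hp h7
  have huni : ∀ (s : slV F V) (ψ : Dual F V), nn s = rk ψ p → ψ p = 0 → ψ ≠ 0 → s * s = 1 ∧ s ≠ 1 := by
    intro s ψ hs hψ hψ0
    have h1 : s = un h2 (rk ψ p) (hsq ψ hψ) := nn_inj (by rw [nn_un, hs])
    rw [h1]
    exact ⟨un_mul_self h2 _, un_ne h2 _ (hrk0 ψ hψ0)⟩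
  obtain ⟨ht2, ht1⟩ := huni t φ htn hφp hφ
  obtain ⟨s, ψ, hs, hsn, hψφ, hψp⟩ := exists_second4 h2 h4 hB.toLF ht ht1 ht2 hφ hp hφp htn
  have hψ0 : ψ ≠ 0 := fun h => hψφ (by rw [h]; exact Submodule.zero_mem _)
  obtain ⟨hs2, hs1⟩ := huni s ψ hsn hψp hψ0
  have hst : s ≠ t := by
    rintro rfl
    rw [htn] at hsn
    apply hψφ
    rw [← rk_inj_left hp hsn]
    exact Submodule.mem_span_singleton_self φ
  have hsv : ∀ v, (s : V ≃ₗ[F] V) v = v + ψ v • p := fun v => by
    have h7 := LinearMap.congr_fun hsn v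
    rw [nn_apply, rk_apply] at h7
    rw [← h7]
    abel
  have hcomm : s * t = t * s := by
    apply Subtype.ext
    ext v
    show (s : V ≃ₗ[F] V) ((t : V ≃ₗ[F] V) v) = (t : V ≃ₗ[F] V) ((s : V ≃ₗ[F] V) v)
    rw [htv, hsv, hsv, htv, map_add, map_add, map_smul, map_smul, hψp, hφp, smul_zero, smul_zero, add_zero, add_zero]
    abel
  have h1 := hB.e4b s hs t ht hs1 ht1 hs2 ht2 hst hcomm C hC
  exact num4 hq (card_conj_ge4 h2 h4 hφ hp hφp htn hsn hψφ hψp) (index_trans_le h2 h4 hs2 hψ0 hp hsn) h1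

end Main

end Cfsg.Agent.H836.IFR
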