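import Cfsg.Agent.H836.IF.FourEvenB

/-!
# S5719: `PSL_4(q)`, `q` even: the walk (helper836)
-/

set_option autoImplicit false
set_option linter.unusedSectionVars false

namespace Cfsg.Agent.H836.IFR

open Module Subgroup Matrix Cfsg.Agent.H209.Fxy Cfsg.Agent.H232.IFR
open Cfsg.Agent.H847.Bs (slV)

section Lm

variable {F V : Type} [Field F] [AddCommGroup V] [Module F V] [FiniteDimensional F V]

/-- the action of `SL_2(F)` on the plane spanned by `w`, `u` -/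
noncomputable def Lm (w u : V) (ψ' ψ : Dual F V) (g : Matrix (Fin 2) (Fin 2) F) : V →ₗ[F] V :=
  LinearMap.id + rk ((g 0 0 - 1) • ψ' + g 0 1 • ψ) w + rk (g 1 0 • ψ' + (g 1 1 - 1) • ψ) u

theorem Lm_apply (w u : V) (ψ' ψ : Dual F V) (g : Matrix (Fin 2) (Fin 2) F) (v : V) :
    Lm w u ψ' ψ g v = v + ((g 0 0 - 1) * ψ' v + g 0 1 * ψ v) • w + (g 1 0 * ψ' v + (g 1 1 - 1) * ψ v) • u := rfl

variable {w u : V} {ψ' ψ : Dual F V}

theorem Lm_one : Lm w u ψ' ψ 1 = 1 := by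
  ext v
  rw [Lm_apply]
  simp

theorem Lm_mul (a1 : ψ' w = 1) (a2 : ψ' u = 0) (a3 : ψ w = 0) (a4 : ψ u = 1) (g h : Matrix (Fin 2) (Fin 2) F) :
    Lm w u ψ' ψ (g * h) = Lm w u ψ' ψ g * Lm w u ψ' ψ h := by
  ext v
  rw [Module.End.mul_apply, Lm_apply, Lm_apply, Lm_apply]
  simp only [map_add, map_smul, a1, a2, a3, a4, Matrix.mul_apply, Fin.sum_univ_two, smul_eq_mul, mul_zero, mul_one,
    add_zero]
  module

theorem Lm_mul' (a1 : ψ' w = 1) (a2 : ψ' u = 0) (a3 : ψ w = 0) (a4 : ψ u = 1)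
    (g h : Matrix.SpecialLinearGroup (Fin 2) F) :
    Lm w u ψ' ψ (g * h).1 = Lm w u ψ' ψ g.1 * Lm w u ψ' ψ h.1 := Lm_mul a1 a2 a3 a4 g.1 h.1

theorem Lm_one' : Lm w u ψ' ψ (1 : Matrix.SpecialLinearGroup (Fin 2) F).1 = 1 := Lm_one

/-- the determinant -/
noncomputable def Dm (a1 : ψ' w = 1) (a2 : ψ' u = 0) (a3 : ψ w = 0) (a4 : ψ u = 1) :
    Matrix.SpecialLinearGroup (Fin 2) F →* F where
  toFun g := LinearMap.det (Lm w u ψ' ψ g.1)
  map_one' := by rw [Lm_one', map_one]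
  map_mul' g h := by rw [Lm_mul' a1 a2 a3 a4, map_mul]

theorem Lm_det (a1 : ψ' w = 1) (a2 : ψ' u = 0) (a3 : ψ w = 0) (a4 : ψ u = 1) (g : Matrix.SpecialLinearGroup (Fin 2) F) :
    LinearMap.det (Lm w u ψ' ψ g.1) = 1 := by
  have h0 : (Dm a1 a2 a3 a4).ker = ⊤ := by
    rw [eq_top_iff, ← LieClassical.SLGen.closure_transvections, Subgroup.closure_le]
    rintro _ ⟨i, j, hij, c, rfl⟩
    show LinearMap.det (Lm w u ψ' ψ ((1 : Matrix (Fin 2) (Fin 2) F) + Matrix.single i j c)) = 1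
    fin_cases i <;> fin_cases j
    · exact absurd rfl hij
    · have h1 : Lm w u ψ' ψ ((1 : Matrix (Fin 2) (Fin 2) F) + Matrix.single 0 1 c) =
          LinearMap.transvection (c • ψ) w := by
        ext v
        rw [Lm_apply, LinearMap.transvection.apply]
        simp [Matrix.single]
      refine (congrArg LinearMap.det h1).trans ?_
      rw [LinearMap.transvection.det, LinearMap.smul_apply, a3, smul_zero, add_zero]
    · have h1 : Lm w u ψ' ψ ((1 : Matrix (Fin 2) (Fin 2) F) + Matrix.single 1 0 c) =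
          LinearMap.transvection (c • ψ') u := by
        ext v
        rw [Lm_apply, LinearMap.transvection.apply]
        simp [Matrix.single]
      refine (congrArg LinearMap.det h1).trans ?_
      rw [LinearMap.transvection.det, LinearMap.smul_apply, a2, smul_zero, add_zero]
    · exact absurd rfl hij
  have h1 : g ∈ (Dm a1 a2 a3 a4).ker := by rw [h0]; exact mem_top _
  exact h1

/-- `SL_2(F) → SL(V)` -/
noncomputable def LL (a1 : ψ' w = 1) (a2 : ψ' u = 0) (a3 : ψ w = 0) (a4 : ψ u = 1) :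
    Matrix.SpecialLinearGroup (Fin 2) F →* slV F V where
  toFun g := ⟨LinearEquiv.ofLinearMap (Lm w u ψ' ψ g.1) (Lm w u ψ' ψ (g⁻¹).1)
      (by
        have h1 : Lm w u ψ' ψ g.1 * Lm w u ψ' ψ (g⁻¹).1 = 1 := by
          rw [← Lm_mul' a1 a2 a3 a4, mul_inv_cancel, Lm_one']
        exact h1)
      (by
        have h1 : Lm w u ψ' ψ (g⁻¹).1 * Lm w u ψ' ψ g.1 = 1 := by
          rw [← Lm_mul' a1 a2 a3 a4, inv_mul_cancel, Lm_one']
        exact h1), Lm_det a1 a2 a3 a4 g⟩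
  map_one' := by
    apply Subtype.ext
    ext v
    exact LinearMap.congr_fun (Lm_one' (w := w) (u := u) (ψ' := ψ') (ψ := ψ)) v
  map_mul' g h := by
    apply Subtype.ext
    ext v
    exact LinearMap.congr_fun (Lm_mul' a1 a2 a3 a4 g h) v

theorem LL_apply (a1 : ψ' w = 1) (a2 : ψ' u = 0) (a3 : ψ w = 0) (a4 : ψ u = 1) (g : Matrix.SpecialLinearGroup (Fin 2) F)
    (v : V) : (LL a1 a2 a3 a4 g : V ≃ₗ[F] V) v = Lm w u ψ' ψ g.1 v := rfl

end Lm

section Main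

variable {F V : Type} [Field F] [Fintype F] [AddCommGroup V] [Module F V] [FiniteDimensional F V]

/-- `B` contains `1 + φ ⊗ p` -/
def Q (B : Subgroup (slV F V)) (φ : Dual F V) (p : V) : Prop := ∃ t ∈ B, nn t = rk φ p

omit [Fintype F] [FiniteDimensional F V] in
theorem notMem_span_symm {X : Type} [AddCommGroup X] [Module F X] {x y : X} (hx : x ≠ 0)
    (h : y ∉ Submodule.span F {x}) : x ∉ Submodule.span F {y} := by
  intro h1
  obtain ⟨c, rfl⟩ := Submodule.mem_span_singleton.1 h1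
  apply h
  have hc : c ≠ 0 := by
    rintro rfl
    exact hx (zero_smul _ _)
  exact Submodule.mem_span_singleton.2 ⟨c⁻¹, by rw [smul_smul, inv_mul_cancel₀ hc, one_smul]⟩

/-- **The rule.** -/
theorem rule (h2 : (2 : F) = 0) (h4 : finrank F V = 4) (hq : 4 ≤ Nat.card F) {B : Subgroup (slV F V)} (hB : LF4 B)
    {φ ψ : Dual F V} {p w : V} (hQ : Q B φ p) (hφ : φ ≠ 0) (hp : p ≠ 0) (hφp : φ p = 0) (hφw : φ w = 0) (hψp : ψ p = 0)
    (hψw : ψ w = 0) (hw : w ∉ Submodule.span F {p}) (hψ : ψ ∉ Submodule.span F {φ}) : Q B ψ w := by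
  obtain ⟨t, ht, htn⟩ := hQ
  obtain ⟨-, u, -, -, hu1, hu2⟩ := exists_dual_pair hφ hψ
  obtain ⟨f, hf1, hf2⟩ := Submodule.exists_dual_map_eq_bot_of_notMem (x := w) (p := Submodule.span F {p, u}) (by
    intro h
    obtain ⟨a, b, hab⟩ := Submodule.mem_span_pair.1 h
    have h3 : b = 0 := by
      have h5 := congrArg ψ hab
      rwa [map_add, map_smul, map_smul, hψp, hu2, hψw, smul_zero, zero_add, smul_eq_mul, mul_one] at h5
    rw [h3, zero_smul, add_zero] at hab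
    exact hw (Submodule.mem_span_singleton.2 ⟨a, hab⟩)) inferInstance
  have hf0 : ∀ x ∈ Submodule.span F {p, u}, f x = 0 := by
    intro x hx
    have h6 : f x ∈ (Submodule.span F {p, u}).map f := ⟨x, hx, rfl⟩
    rw [hf2, Submodule.mem_bot] at h6
    exact h6
  have hfp := hf0 p (Submodule.subset_span (by simp))
  have hfu := hf0 u (Submodule.subset_span (by simp))
  set ψ' : Dual F V := (f w)⁻¹ • f with hψ'
  have a1 : ψ' w = 1 := by rw [hψ', LinearMap.smul_apply, smul_eq_mul, inv_mul_cancel₀ hf1]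
  have a2 : ψ' u = 0 := by rw [hψ', LinearMap.smul_apply, hfu, smul_zero]
  have a5 : ψ' p = 0 := by rw [hψ', LinearMap.smul_apply, hfp, smul_zero]
  have htv : ∀ v, (t : V ≃ₗ[F] V) v = v + φ v • p := fun v => by
    have h7 := LinearMap.congr_fun htn v
    rw [nn_apply, rk_apply] at h7
    rw [← h7]
    abel
  have hC : (LL a1 a2 hψw hu2).range ≤ centralizer ({t} : Set (slV F V)) := by
    rintro _ ⟨g, rfl⟩
    rw [mem_centralizer_singleton_iff]
    apply Subtype.ext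
    ext v
    show Lm w u ψ' ψ g.1 ((t : V ≃ₗ[F] V) v) = (t : V ≃ₗ[F] V) (Lm w u ψ' ψ g.1 v)
    rw [htv, htv, map_add, map_smul]
    have h7 : Lm w u ψ' ψ g.1 p = p := by
      rw [Lm_apply, a5, hψp]
      simp
    have h8 : φ (Lm w u ψ' ψ g.1 v) = φ v := by
      rw [Lm_apply, map_add, map_add, map_smul, map_smul, hφw, hu1, smul_zero, smul_zero, add_zero, add_zero]
    rw [h7, h8]
  have h1 := rel_lt h2 h4 hq hB ht hφ hp hφp htn _ hC
  rw [← Subgroup.index_comap] at h1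
  have h3 := sl2_top h2 (by rwa [Nat.card_eq_fintype_card] at hq) (H := B.comap (LL a1 a2 hψw hu2)) (by
    rw [← Nat.card_eq_fintype_card]
    exact h1.le)
  let x : Matrix.SpecialLinearGroup (Fin 2) F := ⟨!![1, 1; 0, 1], by rw [Matrix.det_fin_two_of]; ring⟩
  have hx : x.1 = !![1, 1; 0, 1] := rfl
  refine ⟨LL a1 a2 hψw hu2 x, ?_, ?_⟩
  · have h5 : x ∈ B.comap (LL a1 a2 hψw hu2) := by rw [h3]; exact mem_top _
    exact h5
  · ext v
    rw [nn_apply, LL_apply, Lm_apply, rk_apply, hx]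
    simp

theorem walkA (h2 : (2 : F) = 0) (h4 : finrank F V = 4) (hq : 4 ≤ Nat.card F) {B : Subgroup (slV F V)} (hB : LF4 B)
    {φ φ' : Dual F V} {p : V} (hQ : Q B φ p) (hφ : φ ≠ 0) (hp : p ≠ 0) (hφp : φ p = 0) (hφ' : φ' ≠ 0)
    (hφ'p : φ' p = 0) : Q B φ' p := by
  obtain ⟨w, hw, hw1, -⟩ := exists_avoid (by omega) _ (two_le_ker φ φ' h4.ge) p p
  have hD : 4 ≤ finrank F (Dual F V) := by rw [Subspace.dual_finrank_eq, h4]
  obtain ⟨ψ, hψ, hψ1, hψ2⟩ := exists_avoid (by omega) _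
    (two_le_ker (X := Dual F V) (Dual.eval F V p) (Dual.eval F V w) hD) φ φ'
  have hw2 : φ w = 0 := hw.1
  have hw3 : φ' w = 0 := hw.2
  have hψ3 : ψ p = 0 := hψ.1
  have hψ4 : ψ w = 0 := hψ.2
  have hψ0 : ψ ≠ 0 := fun h => hψ1 (by rw [h]; exact Submodule.zero_mem _)
  have hw0 : w ≠ 0 := fun h => hw1 (by rw [h]; exact Submodule.zero_mem _)
  have h5 := rule h2 h4 hq hB hQ hφ hp hφp hw2 hψ3 hψ4 hw1 hψ1
  exact rule h2 h4 hq hB h5 hψ0 hw0 hψ4 hψ3 hw3 hφ'p (notMem_span_symm hp hw1) (notMem_span_symm hφ' hψ2)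

theorem walkB (h2 : (2 : F) = 0) (h4 : finrank F V = 4) (hq : 4 ≤ Nat.card F) {B : Subgroup (slV F V)} (hB : LF4 B)
    {φ : Dual F V} {p p' : V} (hQ : Q B φ p) (hφ : φ ≠ 0) (hp : p ≠ 0) (hφp : φ p = 0) (hp' : p' ≠ 0)
    (hφp' : φ p' = 0) : Q B φ p' := by
  have hD : 4 ≤ finrank F (Dual F V) := by rw [Subspace.dual_finrank_eq, h4]
  obtain ⟨ψ, hψ, hψ1, -⟩ := exists_avoid (by omega) _
    (two_le_ker (X := Dual F V) (Dual.eval F V p) (Dual.eval F V p') hD) φ φ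
  obtain ⟨w, hw, hw1, hw2⟩ := exists_avoid (by omega) _ (two_le_ker φ ψ h4.ge) p p'
  have hw3 : φ w = 0 := hw.1
  have hw4 : ψ w = 0 := hw.2
  have hψ3 : ψ p = 0 := hψ.1
  have hψ4 : ψ p' = 0 := hψ.2
  have hψ0 : ψ ≠ 0 := fun h => hψ1 (by rw [h]; exact Submodule.zero_mem _)
  have hw0 : w ≠ 0 := fun h => hw1 (by rw [h]; exact Submodule.zero_mem _)
  have h5 := rule h2 h4 hq hB hQ hφ hp hφp hw3 hψ3 hw4 hw1 hψ1
  exact rule h2 h4 hq hB h5 hψ0 hw0 hw4 hψ4 hw3 hφp' (notMem_span_symm hp' hw2) (notMem_span_symm hφ hψ1)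

/-- all transvections are in `B` -/
theorem walk (h2 : (2 : F) = 0) (h4 : finrank F V = 4) (hq : 4 ≤ Nat.card F) {B : Subgroup (slV F V)} (hB : LF4 B)
    {φ₀ : Dual F V} {p₀ : V} (hQ : Q B φ₀ p₀) (hφ₀ : φ₀ ≠ 0) (hp₀ : p₀ ≠ 0) (hφp₀ : φ₀ p₀ = 0) {φ : Dual F V} {p : V}
    (hφ : φ ≠ 0) (hp : p ≠ 0) (hφp : φ p = 0) : Q B φ p := by
  have hD : 4 ≤ finrank F (Dual F V) := by rw [Subspace.dual_finrank_eq, h4]
  obtain ⟨χ, hχ, hχ1, -⟩ := exists_avoid (by omega) _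
    (two_le_ker (X := Dual F V) (Dual.eval F V p₀) (Dual.eval F V p) hD) 0 0
  have hχ3 : χ p₀ = 0 := hχ.1
  have hχ4 : χ p = 0 := hχ.2
  have hχ0 : χ ≠ 0 := fun h => hχ1 (by rw [h]; exact Submodule.zero_mem _)
  have h5 := walkA h2 h4 hq hB hQ hφ₀ hp₀ hφp₀ hχ0 hχ3
  have h6 := walkB h2 h4 hq hB h5 hχ0 hp₀ hχ3 hp hχ4
  exact walkA h2 h4 hq hB h6 hχ0 hp hχ4 hφ hφp

end Main

end Cfsg.Agent.H836.IFR
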