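import Cfsg.Agent.H836.IF.FourEvenC

/-!
# S5719: `PSL_4(q)`, `q` even: the end (helper836)
-/

set_option autoImplicit false
set_option linter.unusedSectionVars false

namespace Cfsg.Agent.H836.IFR

open Module Subgroup Matrix Cfsg.Agent.H209.Fxy Cfsg.Agent.H232.IFR
open Cfsg.Agent.H847.Bs (slV)

section

variable {F : Type} [Field F] [Fintype F]

theorem even_of_two (h2 : (2 : F) = 0) : Even (Fintype.card F) := by
  have h1 : ringChar F = 2 := by
    have h3 : ringChar F ∣ 2 := (ringChar.spec F 2).1 (by exact_mod_cast h2)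
    rcases (Nat.dvd_prime Nat.prime_two).1 h3 with h | h
    · exact absurd h (CharP.ringChar_ne_one)
    · exact h
  exact Nat.even_iff.2 (FiniteField.even_card_iff_char_two.1 h1)

theorem no_LF4 (h2 : (2 : F) = 0) {B : Subgroup (slV F (Fin 4 → F))} (hB : LF4 B)
    (hex : ∃ a ∈ B, a ≠ 1 ∧ a * a = 1) (hidx : 729 < B.index) : False := by
  have h4 : finrank F (Fin 4 → F) = 4 := Module.finrank_fin_fun F
  obtain ⟨t, ht, ht2, ht3⟩ := exists_trans h2 hB.toLF hex
  obtain ⟨p, φ, hp, hφ, htn⟩ := exists_rk ht3
  have hsq := nn_sq h2 ht2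
  have hφp : φ p = 0 := by
    rw [htn, rk_mul_rk] at hsq
    obtain ⟨w, hw⟩ := LinearMap.surjective hφ 1
    have h1 := LinearMap.congr_fun hsq w
    rw [LinearMap.smul_apply, rk_apply, hw, one_smul, LinearMap.zero_apply] at h1
    exact (smul_eq_zero.1 h1).resolve_right hp
  have ht1 : t ≠ 1 := by
    rintro rfl
    have h1 : nn (1 : slV F (Fin 4 → F)) = 0 := by
      apply LinearMap.ext
      intro v
      rw [nn_apply]
      exact sub_self v
    rw [h1, LinearMap.range_zero, finrank_bot] at ht3
    exact zero_ne_one ht3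
  rcases Nat.lt_or_ge (Nat.card F) 4 with hq | hq
  · -- `q = 2`
    have h5 : Nat.card F = 2 := by
      obtain ⟨k, hk⟩ := even_of_two h2
      rw [← Nat.card_eq_fintype_card] at hk
      have h6 : 1 < Nat.card F := Finite.one_lt_card
      omega
    have h6 := index_trans_le h2 h4 ht2 hφ hp htn
    rw [h5] at h6
    have h7 : (centralizer ({t} : Set (slV F (Fin 4 → F)))).index ≤ 105 := by omega
    have h8 := lt_of_lt_of_le (hB.e2b t ht ht1 ht2) (Nat.pow_le_pow_left h7 6)
    have h9 : 729 ^ 5 ≤ B.index ^ 5 := Nat.pow_le_pow_left hidx.le 5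
    omega
  · -- `q ≥ 4`
    let psi : Matrix.SpecialLinearGroup (Fin 4) F →* slV F (Fin 4 → F) :=
      (SpecialLinearGroup.toLin' : Matrix.SpecialLinearGroup (Fin 4) F →* _).codRestrict (slV F (Fin 4 → F))
        fun M => by rw [← range_sl]; exact ⟨M, rfl⟩
    have h1 : B.comap psi = ⊤ := by
      rw [eq_top_iff, ← LieClassical.SLGen.closure_transvections, Subgroup.closure_le]
      rintro _ ⟨i, j, hij, c, rfl⟩
      show psi _ ∈ B
      by_cases hc : c = 0
      · have h5 : (SpecialLinearGroup.transvection hij c : Matrix.SpecialLinearGroup (Fin 4) F) = 1 := by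
          apply Subtype.ext
          show (1 : Matrix (Fin 4) (Fin 4) F) + Matrix.single i j c = 1
          rw [hc, Matrix.single_zero, add_zero]
        rw [h5, map_one]
        exact one_mem _
      · have hs0 : (Pi.single i (1 : F) : Fin 4 → F) ≠ 0 := by
          intro h
          have := congrFun h i
          rw [Pi.single_eq_same] at this
          exact one_ne_zero this
        have hd0 : c • (LinearMap.proj j : Dual F (Fin 4 → F)) ≠ 0 := by
          intro h
          have := LinearMap.congr_fun h (Pi.single j (1 : F))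
          rw [LinearMap.smul_apply, LinearMap.proj_apply, Pi.single_eq_same, smul_eq_mul, mul_one] at this
          exact hc this
        obtain ⟨x, hx, hxn⟩ := walk h2 h4 hq hB ⟨t, ht, htn⟩ hφ hp hφp hd0 hs0 (by
          rw [LinearMap.smul_apply, LinearMap.proj_apply, Pi.single_eq_of_ne hij.symm, smul_zero])
        have h5 : psi (SpecialLinearGroup.transvection hij c) = x := by
          apply nn_inj
          rw [hxn]
          apply LinearMap.ext
          intro v
          rw [nn_apply, rk_apply, LinearMap.smul_apply, LinearMap.proj_apply, smul_eq_mul]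
          have h6 : (psi (SpecialLinearGroup.transvection hij c) : (Fin 4 → F) ≃ₗ[F] (Fin 4 → F)) v =
              v + (c * v j) • Pi.single i (1 : F) := LieClassical.SLGen.transvection_smul hij c v
          rw [h6, add_sub_cancel_left]
        rw [h5]
        exact hx
    have h5 : B = ⊤ := by
      rw [eq_top_iff]
      intro g _
      have h6 : (g : (Fin 4 → F) ≃ₗ[F] (Fin 4 → F)) ∈
          (SpecialLinearGroup.toLin' : Matrix.SpecialLinearGroup (Fin 4) F →* _).range := by
        rw [range_sl]; exact g.2
      obtain ⟨M, hM⟩ := h6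
      have h7 : M ∈ B.comap psi := by rw [h1]; exact mem_top _
      have h8 : psi M = g := Subtype.ext hM
      rw [← h8]
      exact h7
    rw [h5, Subgroup.index_top] at hidx
    omega

end

/-- **`PSL_4(q)`, `q` even: no counterexample with `A` of even order.** -/
theorem psl_four_even (F : Type) [Field F] [Fintype F] (h2 : (2 : F) = 0) :
    KillE (Matrix.ProjectiveSpecialLinearGroup (Fin 4) F) := by
  rintro A Γ h ⟨t, ht, ho⟩
  have hev := even_of_two h2
  have hs : IsSimpleGroup (ProjectiveSpecialLinearGroup (Fin 4) F) := S0249.result 4 (by omega)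
  have hfin : Finite (ProjectiveSpecialLinearGroup (Fin 4) F) := by
    unfold ProjectiveSpecialLinearGroup
    infer_instance
  have hq1 : Odd (Fintype.card F - 1) := by
    have := Fintype.card_pos (α := F)
    have h3 := Nat.even_iff.1 hev
    rw [Nat.odd_iff]
    omega
  obtain ⟨e⟩ := sl_std (F := F) 4
  set p : Matrix.SpecialLinearGroup (Fin 4) F →* ProjectiveSpecialLinearGroup (Fin 4) F :=
    QuotientGroup.mk' (Subgroup.center (Matrix.SpecialLinearGroup (Fin 4) F)) with hp
  have hps : Function.Surjective p := QuotientGroup.mk'_surjective _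
  set π : slV F (Fin 4 → F) →* ProjectiveSpecialLinearGroup (Fin 4) F := p.comp e.toMonoidHom with hπ
  have hπs : Function.Surjective π := hps.comp e.surjective
  have hkz : ∀ z ∈ π.ker, e z ∈ Subgroup.center (Matrix.SpecialLinearGroup (Fin 4) F) := by
    intro z hz
    have h3 : p (e z) = 1 := hz
    rwa [← MonoidHom.mem_ker, hp, QuotientGroup.ker_mk'] at h3
  have hkp : ∀ z ∈ π.ker, z ^ (Fintype.card F - 1) = 1 := by
    intro z hz
    apply e.injective
    rw [map_pow, map_one]
    exact center_sl_pow (by omega) (hkz z hz)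
  have hker : ∀ z ∈ π.ker, z ∈ Subgroup.center (slV F (Fin 4 → F)) ∧ (z * z = 1 → z = 1) := by
    intro z hz
    refine ⟨?_, ?_⟩
    · rw [Subgroup.mem_center_iff]
      intro g
      apply e.injective
      rw [map_mul, map_mul]
      exact Subgroup.mem_center_iff.1 (hkz z hz) (e g)
    · intro hzz
      rw [← odd_pow_eq hzz hq1]
      exact hkp z hz
  have hlf : LF4 (A.comap π) := lf4_of π hπs hker (hna_of h) h
  refine no_LF4 (F := F) h2 hlf ?_ ?_
  · obtain ⟨x, hx⟩ := hπs t
    have htt : t * t = 1 := by rw [← pow_two, ← ho, pow_orderOf_eq_one]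
    have hxx : x * x ∈ π.ker := by rw [MonoidHom.mem_ker, map_mul, hx, htt]
    have hπa : π (x ^ (Fintype.card F - 1)) = t := by rw [map_pow, hx, odd_pow_eq htt hq1]
    refine ⟨x ^ (Fintype.card F - 1), ?_, ?_, ?_⟩
    · show π (x ^ (Fintype.card F - 1)) ∈ A
      rw [hπa]
      exact ht
    · intro h1
      rw [h1, map_one] at hπa
      rw [← hπa, orderOf_one] at ho
      omega
    · rw [← (Commute.refl x).mul_pow]
      exact hkp _ hxx
  · rw [Subgroup.index_comap_of_surjective _ hπs]
    exact h.big

end Cfsg.Agent.H836.IFR
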